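/-
Structure of `J(T)`-components: the four-group `W_K`, the action of `S = Q J` on it, and the
structure of `Ω₁(Z(J))`.
-/
import Mathlib
import Cfsg.Agent.Lib.PLocal.Thompson
import Cfsg.Agent.Lib.PGroups.Basic
import Cfsg.Agent.Lib.Components.Basic
import Cfsg.Agent.Lib.LocalEven.Util
import Cfsg.Agent.Lib.LocalEven.CharP
import Cfsg.Agent.Lib.LocalStruct.PCoreOf
import Cfsg.Agent.Lib.LocalStruct.Large2
import Cfsg.Agent.Lib.Quasithin.CalL
import Cfsg.Prelude.Def_JComponents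

set_option autoImplicit false
set_option linter.unusedSectionVars false

namespace Cfsg.Agent.Lib.LocalEven.JComp

open Subgroup Cfsg
open Cfsg.Agent.Lib.PLocal.Thompson
open Cfsg.Agent.Lib.LocalEven.Util
open scoped commutatorElement

variable {G : Type*} [Group G] [Finite G]

/-- A four-group. -/
def IsFour (W : Subgroup G) : Prop := Nat.card W = 4 ∧ ∀ w ∈ W, w * w = 1

theorem comm_of_exp_two {W : Subgroup G} (h : ∀ w ∈ W, w * w = 1) {a b : G} (ha : a ∈ W)
    (hb : b ∈ W) : a * b = b * a := by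
  have h1 := h _ (mul_mem ha hb)
  have h2 := h _ ha
  have h3 := h _ hb
  calc a * b = a * b * (b * a * (b * a)) := by rw [h _ (mul_mem hb ha), mul_one]
    _ = a * (b * b) * a * (b * a) := by group
    _ = b * a := by rw [h3, mul_one, h2, one_mul]

theorem IsFour.comm {W : Subgroup G} (hW : IsFour W) {a b : G} (ha : a ∈ W) (hb : b ∈ W) :
    a * b = b * a := comm_of_exp_two hW.2 ha hb

theorem IsFour.inv_eq {W : Subgroup G} (hW : IsFour W) {a : G} (ha : a ∈ W) : a⁻¹ = a :=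
  inv_eq_of_mul_eq_one_left (hW.2 a ha)

/-- Coordinates on a four-group. -/
theorem IsFour.coords {W : Subgroup G} (hW : IsFour W) {v : G} (hv : v ∈ W) (hv1 : v ≠ 1) :
    ∃ u ∈ W, u ≠ 1 ∧ u ≠ v ∧ ∀ x ∈ W, x = 1 ∨ x = v ∨ x = u ∨ x = v * u := by
  classical
  have hcard : (W : Set G).ncard = 4 := by
    rw [← Nat.card_coe_set_eq]
    exact hW.1
  have h2 : ({1, v} : Set G).ncard ≤ 2 := (Set.ncard_insert_le _ _).trans (by simp)
  obtain ⟨u, hu, hu'⟩ := Set.exists_mem_notMem_of_ncard_lt_ncard (s := ({1, v} : Set G))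
    (t := (W : Set G)) (by omega)
  simp only [Set.mem_insert_iff, Set.mem_singleton_iff, not_or] at hu'
  have hu1 : u ≠ 1 := hu'.1
  have huv : u ≠ v := hu'.2
  have hu2 : u ∈ W := hu
  refine ⟨u, hu2, hu1, huv, ?_⟩
  have e1 : v * u ≠ 1 := by
    intro h
    apply huv
    have h3 := hW.2 v hv
    calc u = v * v * u := by rw [h3, one_mul]
      _ = v * (v * u) := by group
      _ = v := by rw [h, mul_one]
  have e2 : v * u ≠ v := by
    intro h
    exact hu1 (mul_left_cancel (h.trans (mul_one v).symm))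
  have e3 : v * u ≠ u := by
    intro h
    exact hv1 (mul_right_cancel (h.trans (one_mul u).symm))
  have hsub : ({1, v, u, v * u} : Set G) ⊆ W := by
    rintro x (rfl | rfl | rfl | hx)
    · exact one_mem _
    · exact hv
    · exact hu2
    · rw [Set.mem_singleton_iff] at hx
      rw [hx]
      exact mul_mem hv hu2
  have h4 : ({1, v, u, v * u} : Set G).ncard = 4 := by
    have : ({1, v, u, v * u} : Set G) = (({1, v, u, v * u} : Finset G) : Set G) := by simp
    rw [this, Set.ncard_coe_finset]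
    rw [Finset.card_insert_of_notMem, Finset.card_insert_of_notMem, Finset.card_insert_of_notMem,
      Finset.card_singleton]
    · simpa using e3.symm
    · simp only [Finset.mem_insert, Finset.mem_singleton, not_or]
      exact ⟨huv.symm, e2.symm⟩
    · simp only [Finset.mem_insert, Finset.mem_singleton, not_or]
      exact ⟨hv1.symm, hu1.symm, e1.symm⟩
  have heq := Set.eq_of_subset_of_ncard_le hsub (by rw [hcard, h4]) (Set.toFinite _)
  intro x hx
  have hx' : x ∈ ({1, v, u, v * u} : Set G) := by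
    rw [heq]
    exact hx
  simpa using hx'

/-- An element normalizing a four-group and fixing `v` either fixes `u` or sends it to `v u`. -/
theorem IsFour.move {W : Subgroup G} (hW : IsFour W) {v u s : G} (hv : v ∈ W) (hu : u ∈ W)
    (hu1 : u ≠ 1) (huv : u ≠ v) (hc : ∀ x ∈ W, x = 1 ∨ x = v ∨ x = u ∨ x = v * u)
    (hs : s ∈ normalizer (W : Set G)) (hsv : s * v * s⁻¹ = v) :
    s * u * s⁻¹ = u ∨ s * u * s⁻¹ = v * u := by
  have hm : s * u * s⁻¹ ∈ W := conj_mem_of_mem_normalizer hs hu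
  rcases hc _ hm with h | h | h | h
  · exfalso
    apply hu1
    have := congrArg (fun y => s⁻¹ * y * s) h
    simpa [mul_assoc] using this
  · exfalso
    apply huv
    rw [← hsv] at h
    exact mul_left_cancel (mul_right_cancel h)
  · exact Or.inl h
  · exact Or.inr h

/-- Fixing `v` and `u` is centralizing. -/
theorem IsFour.mem_centralizer {W : Subgroup G} {v u s : G}
    (hc : ∀ x ∈ W, x = 1 ∨ x = v ∨ x = u ∨ x = v * u)
    (hsv : s * v * s⁻¹ = v) (hsu : s * u * s⁻¹ = u) : s ∈ centralizer (W : Set G) := by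
  have h1 : s * v = v * s := by
    calc s * v = s * v * s⁻¹ * s := by group
      _ = v * s := by rw [hsv]
  have h2 : s * u = u * s := by
    calc s * u = s * u * s⁻¹ * s := by group
      _ = u * s := by rw [hsu]
  rw [mem_centralizer_iff]
  intro x hx
  rcases hc x hx with rfl | rfl | rfl | rfl
  · simp
  · exact h1.symm
  · exact h2.symm
  · rw [mul_assoc, ← h2, ← mul_assoc, ← h1, mul_assoc]

/-- In a group of order 3. -/
theorem card3_cases {X : Type*} [Group X] [Finite X] (h : Nat.card X = 3) {a b : X} (ha : a ≠ 1) (hb : b ≠ 1) :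
    a = b ∨ a * b = 1 := by
  classical
  by_contra hcon
  push Not at hcon
  obtain ⟨h1, h2⟩ := hcon
  have e1 : a * b ≠ a := by
    intro h3
    exact hb (mul_left_cancel (h3.trans (mul_one a).symm))
  have e2 : a * b ≠ b := by
    intro h3
    exact ha (mul_right_cancel (h3.trans (one_mul b).symm))
  have h4 : ({1, a, b, a * b} : Set X).ncard = 4 := by
    have : ({1, a, b, a * b} : Set X) = (({1, a, b, a * b} : Finset X) : Set X) := by simp
    rw [this, Set.ncard_coe_finset]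
    rw [Finset.card_insert_of_notMem, Finset.card_insert_of_notMem, Finset.card_insert_of_notMem,
      Finset.card_singleton]
    · simpa using e2.symm
    · simp only [Finset.mem_insert, Finset.mem_singleton, not_or]
      exact ⟨h1, e1.symm⟩
    · simp only [Finset.mem_insert, Finset.mem_singleton, not_or]
      exact ⟨ha.symm, hb.symm, h2.symm⟩
  have h5 := Set.ncard_le_card (s := ({1, a, b, a * b} : Set X))
  omega

theorem card3_sq {X : Type*} [Group X] [Finite X] (h : Nat.card X = 3) {a : X} (ha : a ≠ 1) :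
    a * a ≠ 1 := by
  intro h1
  have h2 : orderOf a ∣ 2 := orderOf_dvd_of_pow_eq_one (by rw [pow_two]; exact h1)
  have h3 : orderOf a ∣ 3 := by
    rw [← h]
    exact orderOf_dvd_natCard a
  have h4 : orderOf a = 1 := by
    have := Nat.dvd_gcd h2 h3
    simpa using this
  exact ha (orderOf_eq_one_iff.1 h4)

section Index3

variable {Q K : Subgroup G}

theorem index3_cases (hQK : Q ≤ K) (hN : K ≤ normalizer (Q : Set G)) (h3 : Q.relIndex K = 3)
    {x y : G} (hx : x ∈ K) (hy : y ∈ K) (hxQ : x ∉ Q) (hyQ : y ∉ Q) :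
    x⁻¹ * y ∈ Q ∨ x * y ∈ Q := by
  haveI : (Q.subgroupOf K).Normal := (Subgroup.normal_subgroupOf_iff_le_normalizer hQK).2 hN
  have hcard : Nat.card (↥K ⧸ Q.subgroupOf K) = 3 := h3
  have hmem : ∀ z (hz : z ∈ K), (QuotientGroup.mk (⟨z, hz⟩ : K) : ↥K ⧸ Q.subgroupOf K) = 1 ↔ z ∈ Q := by
    intro z hz
    rw [QuotientGroup.eq_one_iff, mem_subgroupOf]
  have h1 : (QuotientGroup.mk (⟨x, hx⟩ : K) : ↥K ⧸ Q.subgroupOf K) ≠ 1 := fun h => hxQ ((hmem x hx).1 h)
  have h2 : (QuotientGroup.mk (⟨y, hy⟩ : K) : ↥K ⧸ Q.subgroupOf K) ≠ 1 := fun h => hyQ ((hmem y hy).1 h)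
  rcases card3_cases hcard h1 h2 with h | h
  · left
    have := QuotientGroup.eq.1 h
    simpa [mem_subgroupOf] using this
  · right
    rw [← QuotientGroup.mk_mul, QuotientGroup.eq_one_iff, mem_subgroupOf] at h
    exact h

theorem index3_sq (hQK : Q ≤ K) (hN : K ≤ normalizer (Q : Set G)) (h3 : Q.relIndex K = 3)
    {x : G} (hx : x ∈ K) (hxQ : x ∉ Q) : x * x ∉ Q := by
  haveI : (Q.subgroupOf K).Normal := (Subgroup.normal_subgroupOf_iff_le_normalizer hQK).2 hN
  have hcard : Nat.card (↥K ⧸ Q.subgroupOf K) = 3 := h3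
  have hmem : ∀ z (hz : z ∈ K), (QuotientGroup.mk (⟨z, hz⟩ : K) : ↥K ⧸ Q.subgroupOf K) = 1 ↔ z ∈ Q := by
    intro z hz
    rw [QuotientGroup.eq_one_iff, mem_subgroupOf]
  have h1 : (QuotientGroup.mk (⟨x, hx⟩ : K) : ↥K ⧸ Q.subgroupOf K) ≠ 1 := fun h => hxQ ((hmem x hx).1 h)
  intro hxx
  apply card3_sq hcard h1
  rw [← QuotientGroup.mk_mul]
  exact (hmem (x * x) (mul_mem hx hx)).2 hxx

/-- Intermediate subgroups. -/
theorem index3_le {L : Subgroup G} (hQK : Q ≤ K) (h3 : Q.relIndex K = 3) (hQL : Q ≤ L)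
    {y : G} (hyK : y ∈ K) (hyL : y ∈ L) (hyQ : y ∉ Q) : K ≤ L := by
  set L' : Subgroup G := L ⊓ K with hL'
  have hQL' : Q ≤ L' := le_inf hQL hQK
  have hL'K : L' ≤ K := inf_le_right
  have hmul := Subgroup.relIndex_mul_relIndex Q L' K hQL' hL'K
  rw [h3] at hmul
  have hne : Q.relIndex L' ≠ 1 := by
    intro h
    have h1 : L' ≤ Q := Subgroup.relIndex_eq_one.1 h
    exact hyQ (h1 ⟨hyL, hyK⟩)
  have h1 : L'.relIndex K = 1 := by
    have hd : Q.relIndex L' ∣ 3 := ⟨_, hmul.symm⟩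
    rcases (Nat.dvd_prime (by norm_num : Nat.Prime 3)).1 hd with h | h
    · exact absurd h hne
    · rw [h] at hmul
      omega
  exact (Subgroup.relIndex_eq_one.1 h1).trans inf_le_left

end Index3

/-- Lagrange for a proper inclusion. -/
theorem two_mul_card_le {E E' : Subgroup G} (h : E ≤ E') {x : G} (hx : x ∈ E') (hx' : x ∉ E) :
    2 * Nat.card E ≤ Nat.card E' := by
  obtain ⟨k, hk⟩ := Subgroup.card_dvd_of_le h
  have hpos : 0 < Nat.card E' := Nat.card_pos
  have hpos2 : 0 < Nat.card E := Nat.card_pos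
  have hk0 : k ≠ 0 := by
    rintro rfl
    simp at hk
    omega
  have hk1 : k ≠ 1 := by
    rintro rfl
    rw [mul_one] at hk
    have : E = E' := Subgroup.eq_of_le_of_card_ge h hk.le
    exact hx' (this ▸ hx)
  have hk2 : 2 ≤ k := by omega
  rw [hk, mul_comm]
  exact Nat.mul_le_mul_left _ hk2

/-- Conjugation is well behaved on centralizers. -/
theorem conj_mem_centralizer {W : Subgroup G} {x c : G} (hx : x ∈ normalizer (W : Set G))
    (hc : c ∈ centralizer (W : Set G)) : x * c * x⁻¹ ∈ centralizer (W : Set G) := by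
  rw [mem_centralizer_iff] at hc ⊢
  intro w hw
  have h1 := hc (x⁻¹ * w * x) (by
    have := conj_mem_of_mem_normalizer (inv_mem hx) hw
    simpa using this)
  calc w * (x * c * x⁻¹) = x * ((x⁻¹ * w * x) * c) * x⁻¹ := by group
    _ = x * (c * (x⁻¹ * w * x)) * x⁻¹ := by rw [h1]
    _ = x * c * x⁻¹ * w := by group

theorem zpow_mem_of_sq {u t : G} (hu : u * u = 1) (ht : t ∈ zpowers u) : t = 1 ∨ t = u := by
  obtain ⟨m, rfl⟩ := ht
  have hu2 : u ^ (2 : ℤ) = 1 := by
    rw [show (2 : ℤ) = ((2 : ℕ) : ℤ) from rfl, zpow_natCast, pow_two]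
    exact hu
  rcases Int.even_or_odd' m with ⟨k, rfl | rfl⟩
  · left
    show u ^ (2 * k) = 1
    rw [zpow_mul, hu2, one_zpow]
  · right
    show u ^ (2 * k + 1) = u
    rw [zpow_add, zpow_mul, hu2, one_zpow, one_mul, zpow_one]

/-- The data around a `J`-component. -/
structure Setup (S K Q W : Subgroup G) (g : G) : Prop where
  hS : IsPGroup 2 S
  hQS : Q ≤ S
  hQK : Q ≤ K
  hKQ : K ≤ normalizer (Q : Set G)
  hSQ : S ≤ normalizer (Q : Set G)
  hSK : S ≤ normalizer (K : Set G)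
  hK3 : Q.relIndex K = 3
  hWQ : W ≤ Q
  hQW : Q ≤ centralizer (W : Set G)
  hKW : K ≤ normalizer (W : Set G)
  hSW : S ≤ normalizer (W : Set G)
  hW : IsFour W
  hgK : g ∈ K
  hgodd : Odd (orderOf g)
  hgW : g ∉ centralizer (W : Set G)
  hJK : ⁅K, jOf 2 S⁆ = K

namespace Setup

variable {S K Q W : Subgroup G} {g : G} (h : Setup S K Q W g)

include h

theorem hWS : W ≤ S := h.hWQ.trans h.hQS

theorem hWC : W ≤ centralizer (W : Set G) := by
  intro w hw
  rw [mem_centralizer_iff]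
  intro x hx
  exact h.hW.comm hx hw

theorem hgQ : g ∉ Q := fun hq => h.hgW (h.hQW hq)

theorem exists_w₀ : ∃ w₀ ∈ W, w₀ ≠ 1 ∧ ∀ s ∈ S, s * w₀ * s⁻¹ = w₀ := by
  have hN : (W.subgroupOf S).Normal :=
    (Subgroup.normal_subgroupOf_iff_le_normalizer h.hWS).2 h.hSW
  obtain ⟨w, hw, hw1⟩ : ∃ w ∈ W, w ≠ 1 := by
    rcases W.bot_or_exists_ne_one with hb | hb
    · have := h.hW.1
      rw [hb] at this
      simp at this
    · exact hb
  have hne : W.subgroupOf S ≠ ⊥ := by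
    intro hb
    have hm : (⟨w, h.hWS hw⟩ : S) ∈ W.subgroupOf S := by
      rw [mem_subgroupOf]
      exact hw
    rw [hb, mem_bot] at hm
    exact hw1 (congrArg Subtype.val hm)
  obtain ⟨z, hz, hzc, hzo⟩ := Cfsg.Agent.Lib.PGroups.Basic.exists_central_orderOf_eq h.hS
    (W.subgroupOf S) hne
  refine ⟨z, (mem_subgroupOf.1 hz), ?_, ?_⟩
  · intro hz1
    have : z = 1 := Subtype.ext hz1
    rw [this, orderOf_one] at hzo
    omega
  · intro s hs
    have h1 := (mem_center_iff.1 hzc) ⟨s, hs⟩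
    have h2 : s * (z : G) = z * s := congrArg Subtype.val h1
    rw [h2]
    group

/-- `g` has no fixed points on `W`. -/
theorem not_fix {v : G} (hv : v ∈ W) (hv1 : v ≠ 1) : g * v * g⁻¹ ≠ v := by
  intro hfix
  obtain ⟨u, hu, hu1, huv, hc⟩ := h.hW.coords hv hv1
  have hgN : g ∈ normalizer (W : Set G) := h.hKW h.hgK
  rcases IsFour.move h.hW hv hu hu1 huv hc hgN hfix with hgu | hgu
  · exact h.hgW (IsFour.mem_centralizer hc hfix hgu)
  · have hvv : v * v = 1 := h.hW.2 v hv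
    have key : ∀ k : ℕ, g ^ (2 * k) * u * (g ^ (2 * k))⁻¹ = u := by
      intro k
      induction k with
      | zero => simp
      | succ k ih =>
        have e : g ^ (2 * (k + 1)) = g * (g * g ^ (2 * k)) := by
          rw [show 2 * (k + 1) = 2 * k + 1 + 1 by ring, pow_succ, pow_succ]
          have : g ^ (2 * k) * g = g * g ^ (2 * k) := (Commute.refl g).pow_left _
          rw [this, mul_assoc]
          rw [← mul_assoc g, ← mul_assoc g]
          have h3 : g ^ (2 * k) * g = g * g ^ (2 * k) := (Commute.refl g).pow_left _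
          rw [mul_assoc g (g ^ (2 * k)) g, h3]
          group
        calc g ^ (2 * (k + 1)) * u * (g ^ (2 * (k + 1)))⁻¹
            = g * (g * (g ^ (2 * k) * u * (g ^ (2 * k))⁻¹) * g⁻¹) * g⁻¹ := by
              rw [e]; group
          _ = g * (g * u * g⁻¹) * g⁻¹ := by rw [ih]
          _ = g * (v * u) * g⁻¹ := by rw [hgu]
          _ = (g * v * g⁻¹) * (g * u * g⁻¹) := by group
          _ = v * (v * u) := by rw [hfix, hgu]
          _ = (v * v) * u := by group
          _ = u := by rw [hvv, one_mul]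
    obtain ⟨k, hk⟩ := h.hgodd
    have h1 : g ^ (2 * k) * g = 1 := by
      rw [← pow_succ, ← hk]
      exact pow_orderOf_eq_one g
    have h2 : g⁻¹ = g ^ (2 * k) := (eq_inv_of_mul_eq_one_left h1).symm ▸ (by simp)
    have h3 : g⁻¹ * u * g = u := by
      have := key k
      rw [← h2] at this
      simpa using this
    have h4 : g * u * g⁻¹ = u := by
      calc g * u * g⁻¹ = g * (g⁻¹ * u * g) * g⁻¹ := by rw [h3]
        _ = u := by group
    rw [h4] at hgu
    have : v = 1 := by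
      have h5 : v * u = 1 * u := by rw [one_mul]; exact hgu.symm
      exact mul_right_cancel h5
    exact hv1 this

theorem not_cent {x : G} (hx : x ∈ K) (hxQ : x ∉ Q) : x ∉ centralizer (W : Set G) := by
  intro hc
  exact h.hgW (index3_le h.hQK h.hK3 h.hQW hx hc hxQ h.hgK)

theorem sq_not_cent {x : G} (hx : x ∈ K) (hxQ : x ∉ Q) : x * x ∉ centralizer (W : Set G) :=
  h.not_cent (mul_mem hx hx) (index3_sq h.hQK h.hKQ h.hK3 hx hxQ)

/-- `C_S(W)` centralizes `K/Q`. -/
theorem comm_mem_Q {r x : G} (hrS : r ∈ S) (hrW : r ∈ centralizer (W : Set G)) (hx : x ∈ K) :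
    x * r * x⁻¹ * r⁻¹ ∈ Q := by
  by_cases hxQ : x ∈ Q
  · have h1 : r * x⁻¹ * r⁻¹ ∈ Q := conj_mem_of_mem_normalizer (h.hSQ hrS) (inv_mem hxQ)
    have h2 := mul_mem hxQ h1
    have e : x * (r * x⁻¹ * r⁻¹) = x * r * x⁻¹ * r⁻¹ := by group
    rwa [e] at h2
  · set y := r * x * r⁻¹ with hy
    have hyK : y ∈ K := conj_mem_of_mem_normalizer (h.hSK hrS) hx
    have hyQ : y ∉ Q := by
      intro hq
      apply hxQ
      have := conj_mem_of_mem_normalizer (inv_mem (h.hSQ hrS)) hq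
      have e : r⁻¹ * y * r⁻¹⁻¹ = x := by rw [hy]; group
      rwa [e] at this
    rcases index3_cases h.hQK h.hKQ h.hK3 hx hyK hxQ hyQ with hq | hq
    · have h1 : x * (x⁻¹ * y)⁻¹ * x⁻¹ ∈ Q :=
        conj_mem_of_mem_normalizer (h.hKQ hx) (inv_mem hq)
      have e : x * (x⁻¹ * y)⁻¹ * x⁻¹ = x * r * x⁻¹ * r⁻¹ := by rw [hy]; group
      rwa [e] at h1
    · exfalso
      apply h.sq_not_cent hx hxQ
      rw [mem_centralizer_iff]
      intro w hw
      have hwC : ∀ w' ∈ W, r * w' * r⁻¹ = w' := by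
        intro w' hw'
        have := (mem_centralizer_iff.1 hrW) w' hw'
        rw [← this]
        group
      -- `y` acts as `x⁻¹`
      have hqc : ∀ q ∈ Q, ∀ w' ∈ W, q * w' * q⁻¹ = w' := by
        intro q hq' w' hw'
        have := (mem_centralizer_iff.1 (h.hQW hq')) w' hw'
        rw [← this]
        group
      have e1 : y * w * y⁻¹ = x * w * x⁻¹ := by
        have h1 : r⁻¹ * w * r = w := by
          have := hwC (r⁻¹ * w * r) (by
            have := conj_mem_of_mem_normalizer (inv_mem (h.hSW hrS)) hw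
            simpa using this)
          rw [← this]
          group
        calc y * w * y⁻¹ = r * (x * (r⁻¹ * w * r) * x⁻¹) * r⁻¹ := by rw [hy]; group
          _ = r * (x * w * x⁻¹) * r⁻¹ := by rw [h1]
          _ = x * w * x⁻¹ := hwC _ (conj_mem_of_mem_normalizer (h.hKW hx) hw)
      have e2 : y * w * y⁻¹ = x⁻¹ * w * x := by
        have hw' := hqc _ hq w hw
        calc y * w * y⁻¹ = x⁻¹ * ((x * y) * w * (x * y)⁻¹) * x := by group
          _ = x⁻¹ * w * x := by rw [hw']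
      have e3 : x⁻¹ * w * x = x * w * x⁻¹ := e2.symm.trans e1
      calc w * (x * x) = x * (x⁻¹ * w * x) * x := by group
        _ = x * (x * w * x⁻¹) * x := by rw [e3]
        _ = x * x * w := by group

/-- `C_S(W)` is normalized by `K`. -/
theorem K_le_norm : K ≤ normalizer ((S ⊓ centralizer (W : Set G) : Subgroup G) : Set G) := by
  intro x hx
  apply mem_normalizer_of_conj_le
  rintro r ⟨hrS, hrW⟩
  refine mem_inf.2 ⟨?_, conj_mem_centralizer (h.hKW hx) hrW⟩
  have h1 := h.hQS (h.comm_mem_Q hrS hrW hx)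
  have h2 := mul_mem h1 hrS
  simpa using h2

theorem S_le_norm : S ≤ normalizer ((S ⊓ centralizer (W : Set G) : Subgroup G) : Set G) := by
  intro x hx
  apply mem_normalizer_of_conj_le
  rintro r ⟨hrS, hrW⟩
  exact mem_inf.2 ⟨mul_mem (mul_mem hx hrS) (inv_mem hx), conj_mem_centralizer (h.hSW hx) hrW⟩

theorem exists_max_not : ∃ A, IsMaxIn 2 S A ∧ ¬ A ≤ centralizer (W : Set G) := by
  by_contra hcon
  push Not at hcon
  have hJ : jOf 2 S ≤ centralizer (W : Set G) := sSup_le (fun A hA => hcon A hA)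
  apply h.hgW
  have hK : K ≤ centralizer (W : Set G) := by
    conv_lhs => rw [← h.hJK]
    rw [Subgroup.commutator_le]
    intro k hk j hj
    rw [commutatorElement_def]
    exact Subgroup.mul_mem _ (conj_mem_centralizer (h.hKW hk) (hJ hj)) (Subgroup.inv_mem _ (hJ hj))
  exact hK h.hgK

/-- Data: the fixed involution and a second coordinate. -/
structure Coord (S W : Subgroup G) (w₀ u : G) : Prop where
  hw₀ : w₀ ∈ W
  hw₁ : w₀ ≠ 1
  hfix : ∀ s ∈ S, s * w₀ * s⁻¹ = w₀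
  hu : u ∈ W
  hu1 : u ≠ 1
  huv : u ≠ w₀
  hc : ∀ x ∈ W, x = 1 ∨ x = w₀ ∨ x = u ∨ x = w₀ * u

theorem exists_coord : ∃ w₀ u, Coord S W w₀ u := by
  obtain ⟨w₀, hw₀, hw₁, hfix⟩ := h.exists_w₀
  obtain ⟨u, hu, hu1, huv, hc⟩ := h.hW.coords hw₀ hw₁
  exact ⟨w₀, u, hw₀, hw₁, hfix, hu, hu1, huv, hc⟩

variable {w₀ u : G} (hd : Coord S W w₀ u)

include hd

theorem hvv : w₀ * w₀ = 1 := h.hW.2 _ hd.hw₀

theorem huu : u * u = 1 := h.hW.2 _ hd.hu

theorem w₀u : w₀ * u = u * w₀ := h.hW.comm hd.hw₀ hd.hu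

theorem move_of_not {s : G} (hs : s ∈ S) (hsW : s ∉ centralizer (W : Set G)) :
    s * u * s⁻¹ = w₀ * u := by
  rcases IsFour.move h.hW hd.hw₀ hd.hu hd.hu1 hd.huv hd.hc (h.hSW hs) (hd.hfix s hs) with e | e
  · exact absurd (IsFour.mem_centralizer hd.hc (hd.hfix s hs) e) hsW
  · exact e

theorem move_ne {s : G} (hs : s ∈ S) (hsW : s ∉ centralizer (W : Set G)) : s * u * s⁻¹ ≠ u := by
  rw [h.move_of_not hd hs hsW]
  intro e
  exact hd.hw₁ (mul_right_cancel (e.trans (one_mul u).symm))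

theorem fix_of_not {s w : G} (hs : s ∈ S) (hsW : s ∉ centralizer (W : Set G)) (hw : w ∈ W)
    (hsw : s * w * s⁻¹ = w) : w = 1 ∨ w = w₀ := by
  rcases hd.hc w hw with e | e | e | e
  · exact Or.inl e
  · exact Or.inr e
  · subst e
    exact absurd hsw (h.move_ne hd hs hsW)
  · exfalso
    subst e
    have h1 : s * (w₀ * u) * s⁻¹ = (s * w₀ * s⁻¹) * (s * u * s⁻¹) := by group
    rw [h1, hd.hfix s hs, h.move_of_not hd hs hsW, ← mul_assoc, h.hvv hd, one_mul] at hsw
    exact hd.hw₁ (mul_right_cancel (hsw.symm.trans (one_mul u).symm))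

/-- The index two subgroup. -/
theorem mul_mem_of_not {a b : G} (ha : a ∈ S) (haW : a ∉ centralizer (W : Set G)) (hb : b ∈ S)
    (hbW : b ∉ centralizer (W : Set G)) : a * b ∈ centralizer (W : Set G) := by
  apply IsFour.mem_centralizer hd.hc (v := w₀) (u := u)
  · have := hd.hfix _ (mul_mem ha hb)
    exact this
  · have e : a * b * u * (a * b)⁻¹ = a * (b * u * b⁻¹) * a⁻¹ := by group
    rw [e, h.move_of_not hd hb hbW]
    have e2 : a * (w₀ * u) * a⁻¹ = (a * w₀ * a⁻¹) * (a * u * a⁻¹) := by group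
    rw [e2, hd.hfix a ha, h.move_of_not hd ha haW, ← mul_assoc, h.hvv hd, one_mul]

theorem card_le_two_mul {A : Subgroup G} (hA : IsMaxIn 2 S A) {a : G} (ha : a ∈ A)
    (haW : a ∉ centralizer (W : Set G)) :
    Nat.card A ≤ 2 * Nat.card ↥(A ⊓ centralizer (W : Set G)) := by
  classical
  have haa : a * a = 1 := by
    have := hA.2.1.pow ha
    rwa [pow_two] at this
  set A₀ : Subgroup G := A ⊓ centralizer (W : Set G) with hA₀
  have hsub : (A : Set G) ⊆ (A₀ : Set G) ∪ (fun y => a * y) '' (A₀ : Set G) := by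
    intro b hb
    by_cases hbW : b ∈ centralizer (W : Set G)
    · left
      exact mem_inf.2 ⟨hb, hbW⟩
    · right
      refine ⟨a * b, mem_inf.2 ⟨mul_mem ha hb, h.mul_mem_of_not hd (hA.1 ha) haW (hA.1 hb) hbW⟩, ?_⟩
      show a * (a * b) = b
      rw [← mul_assoc, haa, one_mul]
  have h1 := Set.ncard_le_ncard hsub (Set.toFinite _)
  have h2 := Set.ncard_union_le (A₀ : Set G) ((fun y => a * y) '' (A₀ : Set G))
  have h3 : ((fun y => a * y) '' (A₀ : Set G)).ncard ≤ (A₀ : Set G).ncard :=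
    Set.ncard_image_le (Set.toFinite _)
  have e1 : Nat.card A = (A : Set G).ncard := (Nat.card_coe_set_eq _)
  have e2 : Nat.card A₀ = (A₀ : Set G).ncard := (Nat.card_coe_set_eq _)
  omega

theorem w₀_mem_of_max {A : Subgroup G} (hA : IsMaxIn 2 S A) {a : G} (ha : a ∈ A)
    (haW : a ∉ centralizer (W : Set G)) : w₀ ∈ A ⊓ centralizer (W : Set G) := by
  classical
  by_contra hw
  set A₀ : Subgroup G := A ⊓ centralizer (W : Set G) with hA₀def
  have hA₀ : IsAbExp 2 A₀ := hA.2.1.mono inf_le_left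
  have hw₀2 : w₀ ^ 2 = 1 := by rw [pow_two]; exact h.hvv hd
  have hu2 : u ^ 2 = 1 := by rw [pow_two]; exact h.huu hd
  have hc₀ : ∀ b ∈ A₀, b * w₀ = w₀ * b := fun b hb =>
    ((mem_centralizer_iff.1 (mem_inf.1 hb).2) w₀ hd.hw₀).symm
  have hcu : ∀ b ∈ A₀, b * u = u * b := fun b hb =>
    ((mem_centralizer_iff.1 (mem_inf.1 hb).2) u hd.hu).symm
  have hE₁ : IsAbExp 2 (A₀ ⊔ zpowers w₀) := hA₀.sup_zpowers hw₀2 hc₀
  have hcE : ∀ b ∈ A₀ ⊔ zpowers w₀, b * u = u * b := by
    have hle : A₀ ⊔ zpowers w₀ ≤ centralizer ({u} : Set G) := by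
      refine sup_le ?_ ?_
      · intro b hb
        rw [mem_centralizer_singleton_iff]
        exact hcu b hb
      · rw [zpowers_le, mem_centralizer_singleton_iff]
        exact h.w₀u hd
    intro b hb
    exact mem_centralizer_singleton_iff.1 (hle hb)
  have hE₂ : IsAbExp 2 ((A₀ ⊔ zpowers w₀) ⊔ zpowers u) := hE₁.sup_zpowers hu2 hcE
  have hE₁a : A₀ ⊔ zpowers w₀ ≤ centralizer ({a} : Set G) := by
    refine sup_le ?_ ?_
    · intro b hb
      rw [mem_centralizer_singleton_iff]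
      exact hA.2.1.comm (mem_inf.1 hb).1 ha
    · rw [zpowers_le, mem_centralizer_singleton_iff]
      have := hd.hfix a (hA.1 ha)
      rw [mul_inv_eq_iff_eq_mul] at this
      exact this.symm
  have huE₁ : u ∉ A₀ ⊔ zpowers w₀ := by
    intro hu'
    have h1 := mem_centralizer_singleton_iff.1 (hE₁a hu')
    apply h.move_ne hd (hA.1 ha) haW
    rw [← h1]
    group
  have hc1 : 2 * Nat.card A₀ ≤ Nat.card ↥(A₀ ⊔ zpowers w₀) :=
    two_mul_card_le le_sup_left (mem_sup_right (mem_zpowers w₀)) hw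
  have hc2 : 2 * Nat.card ↥(A₀ ⊔ zpowers w₀) ≤ Nat.card ↥((A₀ ⊔ zpowers w₀) ⊔ zpowers u) :=
    two_mul_card_le le_sup_left (mem_sup_right (mem_zpowers u)) huE₁
  have hE₂S : (A₀ ⊔ zpowers w₀) ⊔ zpowers u ≤ S := by
    refine sup_le (sup_le ?_ ?_) ?_
    · exact inf_le_left.trans hA.1
    · rw [zpowers_le]
      exact h.hWS hd.hw₀
    · rw [zpowers_le]
      exact h.hWS hd.hu
  have hc3 := hA.2.2 _ hE₂S hE₂
  have hc4 : Nat.card A ≤ 2 * Nat.card A₀ := h.card_le_two_mul hd hA ha haW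
  have hpos : 0 < Nat.card A₀ := Nat.card_pos
  omega

theorem isMaxIn_D {A : Subgroup G} (hA : IsMaxIn 2 S A) {a : G} (ha : a ∈ A)
    (haW : a ∉ centralizer (W : Set G)) :
    IsMaxIn 2 S ((A ⊓ centralizer (W : Set G)) ⊔ zpowers u) ∧
      (A ⊓ centralizer (W : Set G)) ⊔ zpowers u ≤ centralizer (W : Set G) := by
  classical
  set A₀ : Subgroup G := A ⊓ centralizer (W : Set G) with hA₀def
  have hA₀ : IsAbExp 2 A₀ := hA.2.1.mono inf_le_left
  have hu2 : u ^ 2 = 1 := by rw [pow_two]; exact h.huu hd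
  have hcu : ∀ b ∈ A₀, b * u = u * b := fun b hb =>
    ((mem_centralizer_iff.1 (mem_inf.1 hb).2) u hd.hu).symm
  have huA : u ∉ A₀ := by
    intro hu'
    have h1 := hA.2.1.comm ha (mem_inf.1 hu').1
    apply h.move_ne hd (hA.1 ha) haW
    rw [h1]
    group
  have hc1 : 2 * Nat.card A₀ ≤ Nat.card ↥(A₀ ⊔ zpowers u) :=
    two_mul_card_le le_sup_left (mem_sup_right (mem_zpowers u)) huA
  have hc4 : Nat.card A ≤ 2 * Nat.card A₀ := h.card_le_two_mul hd hA ha haW
  refine ⟨⟨?_, hA₀.sup_zpowers hu2 hcu, ?_⟩, ?_⟩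
  · refine sup_le (inf_le_left.trans hA.1) ?_
    rw [zpowers_le]
    exact h.hWS hd.hu
  · intro B hB hB'
    have := hA.2.2 B hB hB'
    omega
  · refine sup_le inf_le_right ?_
    rw [zpowers_le]
    exact h.hWC hd.hu

omit h hd in
theorem mem_sup_zpowers {E : Subgroup G} {u y : G} (hu : u * u = 1) (hc : ∀ b ∈ E, b * u = u * b)
    (hy : y ∈ E ⊔ zpowers u) : y ∈ E ∨ ∃ e ∈ E, y = u * e := by
  rw [sup_comm] at hy
  have hle : zpowers u ≤ normalizer (E : Set G) := by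
    rw [zpowers_le]
    apply mem_normalizer_of_conj_le
    intro b hb
    have : u * b * u⁻¹ = b := by
      rw [← hc b hb]
      group
    rw [this]
    exact hb
  obtain ⟨t, ht, e, he, rfl⟩ := Cfsg.Agent.Lib.Components.Basic.mem_sup_of_le_normalizer hle hy
  rcases zpow_mem_of_sq hu ht with rfl | rfl
  · left
    simpa using he
  · right
    exact ⟨e, he, rfl⟩

omit h hd in
/-- Conjugates of maximal members, by elements normalizing a subgroup through which they factor. -/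
theorem isMaxIn_conj {x : G} {A : Subgroup G} (hA : IsMaxIn 2 S A) (hx : ∀ a ∈ A, x * a * x⁻¹ ∈ S) :
    IsMaxIn 2 S (A.map (MulAut.conj x).toMonoidHom) := by
  refine ⟨?_, hA.2.1.map _, ?_⟩
  · rintro _ ⟨a, ha, rfl⟩
    exact hx a ha
  · intro B hB hB'
    rw [Subgroup.card_map_of_injective (MulAut.conj x).injective]
    exact hA.2.2 B hB hB'

end Setup

/-- The maximal members inside `C(W)`. -/
def famR (S W : Subgroup G) : Set (Subgroup G) :=
  {A | IsMaxIn 2 S A ∧ A ≤ centralizer (W : Set G)}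

/-- Their intersection. -/
def yOf (S W : Subgroup G) : Subgroup G := sInf (famR S W)

/-- The intersection of the maximal members, `Ω₁(Z(J(S)))`. -/
def zOf (S : Subgroup G) : Subgroup G := sInf {A | IsMaxIn 2 S A}

theorem conj_famR {S W : Subgroup G} {x : G}
    (hx : x ∈ normalizer ((S ⊓ centralizer (W : Set G) : Subgroup G) : Set G)) {A : Subgroup G}
    (hA : A ∈ famR S W) : A.map (MulAut.conj x).toMonoidHom ∈ famR S W := by
  have key : ∀ a ∈ A, x * a * x⁻¹ ∈ S ⊓ centralizer (W : Set G) := fun a ha =>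
    conj_mem_of_mem_normalizer hx (mem_inf.2 ⟨hA.1.1 ha, hA.2 ha⟩)
  refine ⟨Setup.isMaxIn_conj hA.1 (fun a ha => (mem_inf.1 (key a ha)).1), ?_⟩
  rintro _ ⟨a, ha, rfl⟩
  exact (mem_inf.1 (key a ha)).2

theorem conj_mem_yOf {S W : Subgroup G} {x y : G}
    (hx : x ∈ normalizer ((S ⊓ centralizer (W : Set G) : Subgroup G) : Set G))
    (hy : y ∈ yOf S W) : x * y * x⁻¹ ∈ yOf S W := by
  rw [yOf, mem_sInf]
  intro A hA
  have h1 := mem_sInf.1 hy _ (conj_famR (inv_mem hx) hA)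
  obtain ⟨a, ha, e⟩ := h1
  have e' : x⁻¹ * a * x⁻¹⁻¹ = y := e
  rw [← e']
  simpa [mul_assoc] using ha

/-- Elements acting trivially on `Y / W`. -/
def hSub (Y W : Subgroup G) : Subgroup G where
  carrier := {h | h ∈ normalizer (W : Set G) ∧ h ∈ normalizer (Y : Set G) ∧
    ∀ y ∈ Y, h * y * h⁻¹ * y⁻¹ ∈ W}
  one_mem' := ⟨one_mem _, one_mem _, fun y _ => by simp⟩
  mul_mem' := by
    rintro a b ⟨ha1, ha2, ha3⟩ ⟨hb1, hb2, hb3⟩
    refine ⟨mul_mem ha1 hb1, mul_mem ha2 hb2, fun y hy => ?_⟩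
    have h1 := conj_mem_of_mem_normalizer ha1 (hb3 y hy)
    have h2 := mul_mem h1 (ha3 y hy)
    have e : a * (b * y * b⁻¹ * y⁻¹) * a⁻¹ * (a * y * a⁻¹ * y⁻¹) = a * b * y * (a * b)⁻¹ * y⁻¹ := by
      group
    rwa [e] at h2
  inv_mem' := by
    rintro a ⟨ha1, ha2, ha3⟩
    refine ⟨inv_mem ha1, inv_mem ha2, fun y hy => ?_⟩
    have hy' : a⁻¹ * y * a ∈ Y := by
      have := conj_mem_of_mem_normalizer (inv_mem ha2) hy
      simpa using this
    have h1 := inv_mem (ha3 _ hy')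
    have e : (a * (a⁻¹ * y * a) * a⁻¹ * (a⁻¹ * y * a)⁻¹)⁻¹ = a⁻¹ * y * a⁻¹⁻¹ * y⁻¹ := by group
    rwa [e] at h1

theorem conj_mem_hSub {Y W : Subgroup G} {k t : G} (hk1 : k ∈ normalizer (W : Set G))
    (hk2 : k ∈ normalizer (Y : Set G)) (ht : t ∈ hSub Y W) : k * t * k⁻¹ ∈ hSub Y W := by
  obtain ⟨h1, h2, h3⟩ := ht
  refine ⟨mul_mem (mul_mem hk1 h1) (inv_mem hk1), mul_mem (mul_mem hk2 h2) (inv_mem hk2), ?_⟩
  intro y hy
  have hy' : k⁻¹ * y * k ∈ Y := by
    have := conj_mem_of_mem_normalizer (inv_mem hk2) hy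
    simpa using this
  have h4 := conj_mem_of_mem_normalizer hk1 (h3 _ hy')
  have e : k * (t * (k⁻¹ * y * k) * t⁻¹ * (k⁻¹ * y * k)⁻¹) * k⁻¹ =
      k * t * k⁻¹ * y * (k * t * k⁻¹)⁻¹ * y⁻¹ := by group
  rwa [e] at h4

namespace Setup

variable {S K Q W : Subgroup G} {g : G} (h : Setup S K Q W g)
variable {w₀ u : G} (hd : Coord S W w₀ u)

include h hd

theorem comm_A_Y {A : Subgroup G} (hA : IsMaxIn 2 S A) {b y : G} (hb : b ∈ A) (hy : y ∈ yOf S W) :
    b * y * b⁻¹ * y⁻¹ ∈ W := by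
  by_cases hAC : A ≤ centralizer (W : Set G)
  · have hyA : y ∈ A := mem_sInf.1 hy A ⟨hA, hAC⟩
    have hcomm := hA.2.1.comm hb hyA
    rw [hcomm]
    simp
  · obtain ⟨a, ha, haW⟩ := SetLike.not_le_iff_exists.1 hAC
    have hD := h.isMaxIn_D hd hA ha haW
    have hyD := mem_sInf.1 hy _ ⟨hD.1, hD.2⟩
    have hcu : ∀ b ∈ A ⊓ centralizer (W : Set G), b * u = u * b := fun b hb =>
      ((mem_centralizer_iff.1 (mem_inf.1 hb).2) u hd.hu).symm
    rcases mem_sup_zpowers (h.huu hd) hcu hyD with hy' | ⟨e, he, rfl⟩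
    · have hcomm := hA.2.1.comm hb (mem_inf.1 hy').1
      rw [hcomm]
      simp
    · have hcomm := hA.2.1.comm hb (mem_inf.1 he).1
      have e1 : b * (u * e) * b⁻¹ * (u * e)⁻¹ = b * u * b⁻¹ * (b * e * b⁻¹ * e⁻¹) * u⁻¹ := by
        group
      have e2 : b * e * b⁻¹ * e⁻¹ = 1 := by
        rw [hcomm]
        group
      rw [e1, e2, mul_one]
      exact mul_mem (conj_mem_of_mem_normalizer (h.hSW (hA.1 hb)) hd.hu) (inv_mem hd.hu)

theorem S_norm_yOf : S ≤ normalizer (yOf S W : Set G) := by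
  intro s hs
  apply mem_normalizer_of_conj_le
  intro y hy
  exact conj_mem_yOf (h.S_le_norm hs) hy

theorem K_norm_yOf : K ≤ normalizer (yOf S W : Set G) := by
  intro s hs
  apply mem_normalizer_of_conj_le
  intro y hy
  exact conj_mem_yOf (h.K_le_norm hs) hy

theorem jOf_le_hSub : jOf 2 S ≤ hSub (yOf S W) W := by
  refine sSup_le fun A hA => ?_
  intro b hb
  have hbS := hA.1 hb
  exact ⟨h.hSW hbS, h.S_norm_yOf hd hbS, fun y hy => h.comm_A_Y hd hA hb hy⟩

theorem K_le_hSub : K ≤ hSub (yOf S W) W := by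
  conv_lhs => rw [← h.hJK]
  rw [Subgroup.commutator_le]
  intro k hk j hj
  rw [commutatorElement_def]
  have hj' := h.jOf_le_hSub hd hj
  exact mul_mem (conj_mem_hSub (h.hKW hk) (h.K_norm_yOf hd hk) hj') (inv_mem hj')

theorem comm_K_Y {k y : G} (hk : k ∈ K) (hy : y ∈ yOf S W) : k * y * k⁻¹ * y⁻¹ ∈ W :=
  (h.K_le_hSub hd hk).2.2 y hy

theorem famR_nonempty : (famR S W).Nonempty := by
  obtain ⟨A, hA, hAC⟩ := h.exists_max_not
  obtain ⟨a, ha, haW⟩ := SetLike.not_le_iff_exists.1 hAC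
  have hD := h.isMaxIn_D hd hA ha haW
  exact ⟨_, hD⟩

theorem yOf_le_cent : yOf S W ≤ centralizer (W : Set G) := by
  obtain ⟨D, hD⟩ := h.famR_nonempty hd
  exact (sInf_le hD).trans hD.2

theorem zOf_le_yOf : zOf S ≤ yOf S W := by
  refine le_sInf fun A hA => ?_
  exact sInf_le hA.1

theorem w₀_mem_zOf : w₀ ∈ zOf S := by
  rw [zOf, mem_sInf]
  intro A hA
  refine hA.mem_of_commute (h.hWS hd.hw₀) (by rw [pow_two]; exact h.hvv hd) ?_
  intro a ha
  have := hd.hfix a (hA.1 ha)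
  rw [mul_inv_eq_iff_eq_mul] at this
  exact this

theorem conj_mem_zOf {s z : G} (hs : s ∈ S) (hz : z ∈ zOf S) : s * z * s⁻¹ ∈ zOf S := by
  rw [zOf, mem_sInf]
  intro A hA
  have h1 := mem_sInf.1 hz _ (isMaxIn_conj (x := s⁻¹) hA (fun a ha =>
    mul_mem (mul_mem (inv_mem hs) (hA.1 ha)) (inv_mem (inv_mem hs))))
  obtain ⟨a, ha, e⟩ := h1
  have e' : s⁻¹ * a * s⁻¹⁻¹ = z := e
  rw [← e']
  simpa [mul_assoc] using ha

/-- `Z₀ ∩ W` has two elements. -/
theorem mem_zOf_inf {w : G} (hw : w ∈ zOf S ⊓ W) : w = 1 ∨ w = w₀ := by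
  obtain ⟨A, hA, hAC⟩ := h.exists_max_not
  obtain ⟨a, ha, haW⟩ := SetLike.not_le_iff_exists.1 hAC
  have hwA : w ∈ A := mem_sInf.1 (mem_inf.1 hw).1 A hA
  refine h.fix_of_not hd (hA.1 ha) haW (mem_inf.1 hw).2 ?_
  rw [hA.2.1.comm ha hwA]
  group

theorem card_zOf_inf : Nat.card ↥(zOf S ⊓ W) = 2 := by
  classical
  have hset : ((zOf S ⊓ W : Subgroup G) : Set G) = {1, w₀} := by
    ext w
    constructor
    · intro hw
      have := h.mem_zOf_inf hd hw
      simpa using this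
    · intro hw
      rcases hw with rfl | hw
      · exact one_mem _
      · rw [Set.mem_singleton_iff] at hw
        subst hw
        exact mem_inf.2 ⟨h.w₀_mem_zOf hd, hd.hw₀⟩
  have e : Nat.card ↥(zOf S ⊓ W) = ((zOf S ⊓ W : Subgroup G) : Set G).ncard :=
    Nat.card_coe_set_eq _
  rw [e, hset, Set.ncard_pair hd.hw₁.symm]

/-- `g` acts on `W` with `w ↦ [g, w]` bijective. -/
theorem exists_solve {t : G} (ht : t ∈ W) : ∃ w ∈ W, (g * w * g⁻¹) * w = t := by
  have hgN : g ∈ normalizer (W : Set G) := h.hKW h.hgK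
  let f : W → W := fun w => ⟨(g * w * g⁻¹) * w, mul_mem (conj_mem_of_mem_normalizer hgN w.2) w.2⟩
  have hf : Function.Injective f := by
    rintro ⟨w, hw⟩ ⟨w', hw'⟩ he
    have he' : (g * w * g⁻¹) * w = (g * w' * g⁻¹) * w' := congrArg Subtype.val he
    have hp : g * w * g⁻¹ ∈ W := conj_mem_of_mem_normalizer hgN hw
    have hq : g * w' * g⁻¹ ∈ W := conj_mem_of_mem_normalizer hgN hw'
    by_contra hne
    have hne' : w * w' ≠ 1 := by
      intro h1
      apply hne
      have h2 := h.hW.2 w hw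
      apply Subtype.ext
      show w = w'
      calc w = w * (w' * w') := by rw [h.hW.2 w' hw', mul_one]
        _ = (w * w') * w' := by group
        _ = w' := by rw [h1, one_mul]
    apply h.not_fix (mul_mem hw hw') hne'
    have h1 : g * (w * w') * g⁻¹ = (g * w * g⁻¹) * (g * w' * g⁻¹) := by group
    rw [h1]
    -- `p q = w w'`
    calc (g * w * g⁻¹) * (g * w' * g⁻¹)
        = (g * w' * g⁻¹) * (g * w * g⁻¹) * (w * w) := by
          rw [h.hW.2 w hw, mul_one, h.hW.comm hp hq]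
      _ = (g * w' * g⁻¹) * ((g * w * g⁻¹) * w) * w := by group
      _ = (g * w' * g⁻¹) * ((g * w' * g⁻¹) * w') * w := by rw [he']
      _ = ((g * w' * g⁻¹) * (g * w' * g⁻¹)) * (w' * w) := by group
      _ = w' * w := by rw [h.hW.2 _ hq, one_mul]
      _ = w * w' := h.hW.comm hw' hw
  obtain ⟨w, hw⟩ := (Finite.injective_iff_surjective.1 hf) ⟨t, ht⟩
  exact ⟨w, w.2, congrArg Subtype.val hw⟩

/-- The central decomposition. -/
theorem exists_decomp {z : G} (hz : z ∈ zOf S) :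
    ∃ c ∈ zOf S, ∃ w ∈ zOf S ⊓ W, K ≤ centralizer ({c} : Set G) ∧ z = c * w := by
  have hzY := h.zOf_le_yOf hd hz
  have hzC : z ∈ centralizer (W : Set G) := h.yOf_le_cent hd hzY
  have hzw : ∀ w ∈ W, z * w = w * z := fun w hw => ((mem_centralizer_iff.1 hzC) w hw).symm
  have hgN : g ∈ normalizer (W : Set G) := h.hKW h.hgK
  obtain ⟨w₁, hw₁, hsol⟩ := h.exists_solve hd (h.comm_K_Y hd h.hgK hzY)
  have hw₁1 : w₁ * w₁ = 1 := h.hW.2 _ hw₁
  set c : G := z * w₁ with hc
  have hq2 : (g * w₁ * g⁻¹) * (g * w₁ * g⁻¹) = 1 := h.hW.2 _ (conj_mem_of_mem_normalizer hgN hw₁)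
  have hgc : g * c * g⁻¹ = c := by
    have e1 : g * z * g⁻¹ = (g * w₁ * g⁻¹) * w₁ * z := by
      rw [hsol]
      group
    calc g * c * g⁻¹ = (g * z * g⁻¹) * (g * w₁ * g⁻¹) := by rw [hc]; group
      _ = (g * w₁ * g⁻¹) * w₁ * z * (g * w₁ * g⁻¹) := by rw [e1]
      _ = (g * w₁ * g⁻¹) * (w₁ * z) * (g * w₁ * g⁻¹) := by group
      _ = (g * w₁ * g⁻¹) * (z * w₁) * (g * w₁ * g⁻¹) := by rw [hzw w₁ hw₁]
      _ = (g * w₁ * g⁻¹) * ((z * w₁) * (g * w₁ * g⁻¹)) := by group
      _ = (g * w₁ * g⁻¹) * ((g * w₁ * g⁻¹) * (z * w₁)) := by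
          congr 1
          have hcC : z * w₁ ∈ centralizer (W : Set G) :=
            Subgroup.mul_mem _ hzC (h.hWC hw₁)
          exact ((mem_centralizer_iff.1 hcC) _ (conj_mem_of_mem_normalizer hgN hw₁)).symm
      _ = ((g * w₁ * g⁻¹) * (g * w₁ * g⁻¹)) * (z * w₁) := by group
      _ = c := by rw [hq2, one_mul]
  -- commutators with `Q`
  have hF : ∀ q ∈ Q, q * c * q⁻¹ * c⁻¹ = 1 ∨ q * c * q⁻¹ * c⁻¹ = w₀ := by
    intro q hq
    have hqw : q * w₁ = w₁ * q := ((mem_centralizer_iff.1 (h.hQW hq)) w₁ hw₁).symm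
    have e : q * c * q⁻¹ * c⁻¹ = q * z * q⁻¹ * z⁻¹ := by
      calc q * c * q⁻¹ * c⁻¹ = q * z * (w₁ * q⁻¹) * w₁⁻¹ * z⁻¹ := by rw [hc]; group
        _ = q * z * (q⁻¹ * (q * w₁) * q⁻¹) * w₁⁻¹ * z⁻¹ := by group
        _ = q * z * (q⁻¹ * (w₁ * q) * q⁻¹) * w₁⁻¹ * z⁻¹ := by rw [hqw]
        _ = q * z * q⁻¹ * z⁻¹ := by group
    rw [e]
    refine h.mem_zOf_inf hd (mem_inf.2 ⟨?_, h.comm_K_Y hd (h.hQK hq) hzY⟩)
    exact mul_mem (h.conj_mem_zOf hd (h.hQS hq) hz) (inv_mem hz)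
  have hF1 : ∀ q ∈ Q, q * c = c * q := by
    intro q hq
    have hq' : g⁻¹ * q * g ∈ Q := by
      have := conj_mem_of_mem_normalizer (inv_mem (h.hKQ h.hgK)) hq
      simpa using this
    have e : g * ((g⁻¹ * q * g) * c * (g⁻¹ * q * g)⁻¹ * c⁻¹) * g⁻¹ = q * c * q⁻¹ * c⁻¹ := by
      have hgci : g * c⁻¹ * g⁻¹ = c⁻¹ := by
        have := congrArg (fun y => y⁻¹) hgc
        simpa [mul_assoc] using this
      calc g * ((g⁻¹ * q * g) * c * (g⁻¹ * q * g)⁻¹ * c⁻¹) * g⁻¹
          = q * (g * c * g⁻¹) * q⁻¹ * (g * c⁻¹ * g⁻¹) := by group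
        _ = q * c * q⁻¹ * c⁻¹ := by rw [hgc, hgci]
    have key : q * c * q⁻¹ * c⁻¹ = 1 := by
      rcases hF q hq with e1 | e1
      · exact e1
      · exfalso
        rcases hF _ hq' with e2 | e2
        · rw [e2] at e
          rw [← e1, ← e] at hd
          exact hd.hw₁ (by group)
        · rw [e2, e1] at e
          exact h.not_fix hd.hw₀ hd.hw₁ e
    have := mul_inv_eq_one.1 key
    exact mul_inv_eq_iff_eq_mul.1 this
  have hKc : K ≤ centralizer ({c} : Set G) := by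
    refine index3_le h.hQK h.hK3 ?_ h.hgK ?_ h.hgQ
    · intro q hq
      rw [mem_centralizer_singleton_iff]
      exact hF1 q hq
    · rw [mem_centralizer_singleton_iff]
      rw [mul_inv_eq_iff_eq_mul] at hgc
      exact hgc
  -- the part in `W`
  obtain ⟨A, hA, hAC⟩ := h.exists_max_not
  obtain ⟨a, ha, haW⟩ := SetLike.not_le_iff_exists.1 hAC
  have haS := hA.1 ha
  have hzA : z ∈ A := mem_sInf.1 hz A hA
  have haz : a * z = z * a := hA.2.1.comm ha hzA
  have ha1 : a * w₁ * a⁻¹ ∈ W := conj_mem_of_mem_normalizer (h.hSW haS) hw₁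
  have hw' : w₁ = 1 ∨ w₁ = w₀ := by
    refine h.fix_of_not hd haS haW hw₁ ?_
    -- `e = a c a⁻¹ c⁻¹`
    have he : a * c * a⁻¹ * c⁻¹ = (a * w₁ * a⁻¹) * w₁⁻¹ := by
      have hzc : z * (a * w₁ * a⁻¹ * w₁⁻¹) = (a * w₁ * a⁻¹ * w₁⁻¹) * z :=
        hzw _ (mul_mem ha1 (inv_mem hw₁))
      have e0 : a * z * a⁻¹ = z := by rw [haz]; group
      calc a * c * a⁻¹ * c⁻¹ = (a * z * a⁻¹) * (a * w₁ * a⁻¹) * w₁⁻¹ * z⁻¹ := by rw [hc]; group
        _ = z * ((a * w₁ * a⁻¹) * w₁⁻¹) * z⁻¹ := by rw [e0]; group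
        _ = (a * w₁ * a⁻¹) * w₁⁻¹ * z * z⁻¹ := by
            rw [show z * (a * w₁ * a⁻¹ * w₁⁻¹) = (a * w₁ * a⁻¹ * w₁⁻¹) * z from hzc]
        _ = (a * w₁ * a⁻¹) * w₁⁻¹ := by group
    have hg1 : a⁻¹ * g * a ∈ K := by
      have := conj_mem_of_mem_normalizer (inv_mem (h.hSK haS)) h.hgK
      simpa using this
    have hg2 : (a⁻¹ * g * a) * c = c * (a⁻¹ * g * a) :=
      mem_centralizer_singleton_iff.1 (hKc hg1)
    have hg3 : g * c = c * g := mem_centralizer_singleton_iff.1 (hKc h.hgK)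
    have hfix : g * (a * c * a⁻¹ * c⁻¹) * g⁻¹ = a * c * a⁻¹ * c⁻¹ := by
      have e1 : g * (a * c * a⁻¹) = (a * c * a⁻¹) * g := by
        calc g * (a * c * a⁻¹) = a * ((a⁻¹ * g * a) * c) * a⁻¹ := by group
          _ = a * (c * (a⁻¹ * g * a)) * a⁻¹ := by rw [hg2]
          _ = (a * c * a⁻¹) * g := by group
      have e2 : g * c⁻¹ = c⁻¹ * g := by
        calc g * c⁻¹ = c⁻¹ * (c * g) * c⁻¹ := by group
          _ = c⁻¹ * (g * c) * c⁻¹ := by rw [hg3]
          _ = c⁻¹ * g := by group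
      calc g * (a * c * a⁻¹ * c⁻¹) * g⁻¹ = (g * (a * c * a⁻¹)) * c⁻¹ * g⁻¹ := by group
        _ = (a * c * a⁻¹) * (g * c⁻¹) * g⁻¹ := by rw [e1]; group
        _ = (a * c * a⁻¹) * (c⁻¹ * g) * g⁻¹ := by rw [e2]
        _ = a * c * a⁻¹ * c⁻¹ := by group
    have hone : a * c * a⁻¹ * c⁻¹ = 1 := by
      by_contra hne
      refine h.not_fix ?_ hne hfix
      rw [he]
      exact mul_mem ha1 (inv_mem hw₁)
    rw [he] at hone
    exact mul_inv_eq_one.1 hone
  have hwZ : w₁ ∈ zOf S := by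
    rcases hw' with rfl | rfl
    · exact one_mem _
    · exact h.w₀_mem_zOf hd
  refine ⟨c, mul_mem hz hwZ, w₁, mem_inf.2 ⟨hwZ, hw₁⟩, hKc, ?_⟩
  rw [hc, mul_assoc, hw₁1, mul_one]

end Setup

theorem Setup.main {S K Q W : Subgroup G} {g : G} (h : Setup S K Q W g) :
    Nat.card ↥(zOf S ⊓ W) = 2 ∧
      (zOf S ⊓ ((K ⊔ jOf 2 S) ⊓ centralizer ((K ⊔ jOf 2 S : Subgroup G) : Set G))) ⊔ (zOf S ⊓ W) = zOf S := by
  obtain ⟨w₀, u, hd⟩ := h.exists_coord
  refine ⟨h.card_zOf_inf hd, ?_⟩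
  apply le_antisymm (sup_le inf_le_left inf_le_left)
  intro z hz
  obtain ⟨c, hc, w, hw, hKc, rfl⟩ := h.exists_decomp hd hz
  refine mul_mem_sup (mem_inf.2 ⟨hc, mem_inf.2 ⟨?_, ?_⟩⟩) hw
  · obtain ⟨A, hA⟩ := exists_isMaxIn 2 S
    exact mem_sup_right (hA.le_jOf (mem_sInf.1 hc A hA))
  · rw [mem_centralizer_iff]
    have hle : K ⊔ jOf 2 S ≤ centralizer ({c} : Set G) := by
      refine sup_le hKc (sSup_le fun A hA => ?_)
      intro a ha
      rw [mem_centralizer_singleton_iff]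
      exact hA.2.1.comm ha (mem_sInf.1 hc A hA)
    intro y hy
    exact mem_centralizer_singleton_iff.1 (hle hy)

section Derive

open Cfsg.Agent.Lib.LocalStruct.PCoreOf Cfsg.Agent.Lib.LocalEven.CharP

theorem omegaCenterOf_le {X : Subgroup G} : omegaCenterOf X ≤ X := fun _ hx =>
  (mem_inf.1 (Cfsg.Agent.Lib.Quasithin.CalL.mem_omegaOne_center_iff.1 hx).1).1

theorem omegaCenterOf_le_centralizer {X : Subgroup G} :
    omegaCenterOf X ≤ centralizer (X : Set G) := fun _ hx =>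
  (mem_inf.1 (Cfsg.Agent.Lib.Quasithin.CalL.mem_omegaOne_center_iff.1 hx).1).2

theorem normalizer_le_omegaCenterOf {X : Subgroup G} :
    normalizer (X : Set G) ≤ normalizer (omegaCenterOf X : Set G) :=
  Cfsg.Agent.Lib.Quasithin.CalL.normalizer_le_normalizer_omegaOne_center X

theorem normalizer_le_pCoreOf {K : Subgroup G} :
    normalizer (K : Set G) ≤ normalizer (pCoreOf 2 K : Set G) := by
  haveI : Fact (Nat.Prime 2) := ⟨Nat.prime_two⟩
  exact Cfsg.Agent.Lib.LocalStruct.Large2.le_normalizer_pCoreOf_of (fun _ h => h)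

/-- `x` normalizing `K` normalizes `W_K`. -/
theorem normalizer_le_wOf {K : Subgroup G} :
    normalizer (K : Set G) ≤ normalizer (wOf K : Set G) := by
  intro x hx
  exact mem_normalizer_commutator (normalizer_le_omegaCenterOf (normalizer_le_pCoreOf hx)) hx

theorem K_le_normalizer_omega (K : Subgroup G) :
    K ≤ normalizer (omegaCenterOf (pCoreOf 2 K) : Set G) := by
  haveI : Fact (Nat.Prime 2) := ⟨Nat.prime_two⟩
  exact (le_normalizer_pCoreOf K).trans normalizer_le_omegaCenterOf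

theorem wOf_le_omega (K : Subgroup G) : wOf K ≤ omegaCenterOf (pCoreOf 2 K) := by
  rw [wOf, Subgroup.commutator_le]
  intro ω hω k hk
  have h1 := mul_mem hω (conj_mem_of_mem_normalizer (K_le_normalizer_omega K hk) (inv_mem hω))
  have e : ω * (k * ω⁻¹ * k⁻¹) = ⁅ω, k⁆ := by
    rw [commutatorElement_def]
    group
  rwa [e] at h1

theorem K_le_normalizer_wOf (K : Subgroup G) : K ≤ normalizer (wOf K : Set G) :=
  le_normalizer.trans normalizer_le_wOf

/-- The odd element moving `W`. -/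
theorem exists_odd {T K : Subgroup G} (hK : IsJComponent T K) :
    ∃ g ∈ K, Odd (orderOf g) ∧ g ∉ pCoreOf 2 K := by
  by_contra hcon
  push Not at hcon
  have h1 : K ≤ pCoreOf 2 K := by
    conv_lhs => rw [← hK.1]
    rw [closure_le]
    rintro g ⟨hg, hgo⟩
    exact hcon g hg hgo
  have h2 : (pCoreOf 2 K).relIndex K = 1 := Subgroup.relIndex_eq_one.2 h1
  have h3 := hK.2.2.1
  omega

theorem odd_not_cent {T K : Subgroup G} (hK : IsJComponent T K) {g : G} (hg : g ∈ K)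
    (hgo : Odd (orderOf g)) (hgQ : g ∉ pCoreOf 2 K) : g ∉ centralizer (wOf K : Set G) := by
  haveI : Fact (Nat.Prime 2) := ⟨Nat.prime_two⟩
  intro hgc
  set Ω := omegaCenterOf (pCoreOf 2 K) with hΩ
  have hgΩ : g ∈ centralizer (Ω : Set G) := by
    rw [mem_centralizer_iff]
    intro ω hω
    set v := g * ω * g⁻¹ * ω⁻¹ with hv
    have hvW : v ∈ wOf K := by
      have h1 : ⁅g, ω⁆ ∈ ⁅K, Ω⁆ := commutator_mem_commutator hg hω
      rw [Subgroup.commutator_comm] at h1
      exact h1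
    have hvv : v * v = 1 := hK.2.2.2.2.2 v hvW
    have hgv : g * v = v * g := ((mem_centralizer_iff.1 hgc) v hvW).symm
    have key : ∀ n : ℕ, g ^ n * ω * (g ^ n)⁻¹ = v ^ n * ω := by
      intro n
      induction n with
      | zero => simp
      | succ n ih =>
        have hgvn : g * v ^ n = v ^ n * g := (show Commute g v from hgv).pow_right n
        calc g ^ (n + 1) * ω * (g ^ (n + 1))⁻¹ = g * (g ^ n * ω * (g ^ n)⁻¹) * g⁻¹ := by
              rw [pow_succ' g n]; group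
          _ = g * (v ^ n * ω) * g⁻¹ := by rw [ih]
          _ = (g * v ^ n) * ω * g⁻¹ := by group
          _ = (v ^ n * g) * ω * g⁻¹ := by rw [hgvn]
          _ = v ^ n * (g * ω * g⁻¹ * ω⁻¹) * ω := by group
          _ = v ^ (n + 1) * ω := by rw [pow_succ]
    have h2 := key (orderOf g)
    rw [pow_orderOf_eq_one] at h2
    simp only [one_mul, inv_one, mul_one] at h2
    have h3 : v ^ orderOf g = 1 := by
      have : v ^ orderOf g * ω = 1 * ω := by rw [one_mul]; exact h2.symm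
      exact mul_right_cancel this
    obtain ⟨k, hk⟩ := hgo
    rw [hk, pow_succ, pow_mul, pow_two, hvv, one_pow, one_mul] at h3
    rw [hv] at h3
    have h4 := mul_inv_eq_one.1 h3
    rw [mul_inv_eq_iff_eq_mul] at h4
    exact h4.symm
  have hQΩ : pCoreOf 2 K ≤ centralizer (Ω : Set G) := by
    intro q hq
    rw [mem_centralizer_iff]
    intro ω hω
    have := (mem_centralizer_iff.1 (omegaCenterOf_le_centralizer hω)) q hq
    exact this.symm
  have hKΩ : K ≤ centralizer (Ω : Set G) :=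
    index3_le (pCoreOf_le K) hK.2.2.1 hQΩ hg hgΩ hgQ
  have hbot : wOf K = ⊥ := by
    rw [wOf, Subgroup.commutator_comm]
    exact commutator_eq_bot_iff_le_centralizer.2 hKΩ
  have h5 := hK.2.2.2.2.1
  rw [hbot] at h5
  simp at h5

/-- The `J`-component data, for a Sylow 2-subgroup of `⟨K, J⟩` containing `J`. -/
theorem exists_setup {T K : Subgroup G} (hT : IsPGroup 2 T) (hK : IsJComponent T K) :
    ∃ S g, IsSylowTwoIn S (K ⊔ thompsonSubgroupOf 2 T) ∧ thompsonSubgroupOf 2 T ≤ S ∧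
      jOf 2 S = thompsonSubgroupOf 2 T ∧ Setup S K (pCoreOf 2 K) (wOf K) g := by
  haveI : Fact (Nat.Prime 2) := ⟨Nat.prime_two⟩
  set J := thompsonSubgroupOf 2 T with hJ
  set B := K ⊔ J with hB
  have hJT : J ≤ T := Subgroup.map_subtype_le _
  have hJ2 : IsPGroup 2 J := hT.to_le hJT
  have hJKN : J ≤ normalizer (K : Set G) := by
    have := le_normalizer_commutator J K
    rwa [Subgroup.commutator_comm, hK.2.1] at this
  have hBN : B ≤ normalizer (K : Set G) := sup_le le_normalizer hJKN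
  have hQBN : B ≤ normalizer (pCoreOf 2 K : Set G) := hBN.trans normalizer_le_pCoreOf
  have hJB : J ≤ B := le_sup_right
  have hKB : K ≤ B := le_sup_left
  have hQK : pCoreOf 2 K ≤ K := pCoreOf_le K
  obtain ⟨P, hP⟩ := (hJ2.comap_of_injective B.subtype B.subtype_injective :
    IsPGroup 2 (J.comap B.subtype)).exists_le_sylow
  set S : Subgroup G := (P : Subgroup B).map B.subtype with hS
  have hSB : S ≤ B := Subgroup.map_subtype_le _
  have hS2 : IsPGroup 2 S := P.isPGroup'.map _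
  have hSsub : S.subgroupOf B = P :=
    Subgroup.comap_map_eq_self_of_injective B.subtype_injective _
  have hSyl : IsSylowTwoIn S B := by
    refine ⟨hSB, hS2, ?_⟩
    rw [Subgroup.relIndex, hSsub, ← Nat.not_even_iff_odd, even_iff_two_dvd]
    exact P.not_dvd_index
  have hJS : J ≤ S := by
    intro j hj
    exact ⟨⟨j, hJB hj⟩, hP hj, rfl⟩
  have hQS : pCoreOf 2 K ≤ S := by
    have hn : ((pCoreOf 2 K).comap B.subtype).Normal := by
      refine ⟨fun x hx y => ?_⟩
      rw [mem_comap] at hx ⊢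
      exact conj_mem_of_mem_normalizer (hQBN y.2) hx
    have hp : IsPGroup 2 ((pCoreOf 2 K).comap B.subtype) :=
      (isPGroup_pCoreOf K).comap_of_injective _ B.subtype_injective
    have h1 := IsPGroup.le_sylow_of_normal hp P
    intro q hq
    exact ⟨⟨q, hKB (hQK hq)⟩, h1 hq, rfl⟩
  have hJeq : jOf 2 S = J := by
    rw [← thompsonSubgroupOf_eq]
    exact hK.2.2.2.1 S hSyl hJS
  obtain ⟨g, hg, hgo, hgQ⟩ := exists_odd hK
  refine ⟨S, g, hSyl, hJS, hJeq, ?_⟩
  have hSN : S ≤ normalizer (K : Set G) := hSB.trans hBN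
  have hWΩ := wOf_le_omega K
  exact
    { hS := hS2
      hQS := hQS
      hQK := hQK
      hKQ := le_normalizer_pCoreOf K
      hSQ := hSB.trans hQBN
      hSK := hSN
      hK3 := hK.2.2.1
      hWQ := hWΩ.trans omegaCenterOf_le
      hQW := by
        intro q hq
        rw [mem_centralizer_iff]
        intro w hw
        exact ((mem_centralizer_iff.1 (omegaCenterOf_le_centralizer (hWΩ hw))) q hq).symm
      hKW := K_le_normalizer_wOf K
      hSW := hSN.trans normalizer_le_wOf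
      hW := ⟨hK.2.2.2.2.1, hK.2.2.2.2.2⟩
      hgK := hg
      hgodd := hgo
      hgW := odd_not_cent hK hg hgo hgQ
      hJK := by rw [hJeq]; exact hK.2.1 }

theorem omegaCenterOf_jOf (S : Subgroup G) : omegaCenterOf (jOf 2 S) = zOf S :=
  omegaOne_zjOf 2 S

end Derive

end Cfsg.Agent.Lib.LocalEven.JComp
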